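import Cfsg.Agent.Lib.Chevalley.CountB2
import Cfsg.Agent.Lib.Chevalley.Order
import Cfsg.Agent.Lib.Chevalley.TorusData

/-! The order of the Chevalley group of type B2. -/

set_option autoImplicit false
set_option maxRecDepth 100000

namespace CfsgLib.Chevalley

open Cfsg.Lie

theorem poincareB2 : poincareB (levelExps levelsB2) [2, 4] = true := by decide +kernel

theorem expsLenB2 : (levelsB2.all fun L => L.exps.length == L.imgs.length) = true := by decide +kernel

/-- The order of the group of type B2. -/
theorem cardB2 {F : Type*} [Field F] [Fintype F] :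
    Nat.gcd (Fintype.card F - 1) 2 * Nat.card (chevB2.group F) =
      Fintype.card F ^ (chevB2.nroots / 2) * (([2, 4] : List ℕ).map fun e => Fintype.card F ^ e - 1).prod := by
  refine card_group_eq (D := chevB2) ⟨⟨cert_B2, posB2, by simp⟩, extraB2⟩ reflTabB2_ok
    (Ls := levelsB2) rfl (fun L hL => ?_) levelsB2_ok poincareB2 card_diagonalB2
  have := List.all_eq_true.1 expsLenB2 L hL
  simpa using this

end CfsgLib.Chevalley
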