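import Cfsg.Agent.Lib.Chevalley.BitMat
import Cfsg.Agent.Lib.Chevalley.OrderB2
import Cfsg.Agent.Lib.Generators.CoxeterSn

/-! The group `B₂(2)` is the symmetric group of degree six. -/

set_option autoImplicit false
set_option maxRecDepth 100000

namespace CfsgLib.Chevalley

open Cfsg.Lie

def xbB2 : List (List ℕ) := [[513, 514, 516, 136, 272, 32, 64, 128, 256, 512],
  [257, 2, 68, 266, 80, 544, 64, 640, 256, 512],
  [129, 2, 36, 40, 146, 32, 576, 128, 768, 512],
  [1, 66, 4, 24, 16, 96, 64, 384, 256, 512],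
  [1, 34, 4, 8, 24, 32, 96, 128, 384, 512],
  [17, 2, 4, 12, 16, 36, 64, 146, 320, 576],
  [9, 2, 4, 8, 20, 32, 68, 160, 266, 544],
  [5, 6, 4, 8, 16, 32, 64, 136, 272, 516]]

def sWordsB2 : List (List ℕ) := [[2, 5, 2], [5], [2, 3, 6, 3, 2], [1, 6, 1], [6]]

def gWordsB2 : List (List ℕ) := [[1, 0, 3, 2, 1, 4, 3], [3, 4, 3], [0, 1, 0], [0, 1, 0, 3, 2, 1, 0, 4, 3], [1, 0, 2, 1, 4], [1], [4], [0, 1, 0, 2, 1, 0, 4]]

theorem xbB2_ok : xRowsOk chevB2 xbB2 := by
  unfold xRowsOk
  decide +kernel

/-- The word of a product of two generators to a power. -/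
def relWordB2 (i j : Fin 5) : List ℕ :=
  (List.replicate ((CoxeterMatrix.A 5).M i j) (sWordsB2.getD i [] ++ sWordsB2.getD j [])).flatten

theorem relB2_ok : ∀ i j : Fin 5,
    wordRowsB (D := chevB2) xbB2 (relWordB2 i j) = wordRowsB (D := chevB2) xbB2 [] ∧
      ∀ r ∈ relWordB2 i j, r < chevB2.nroots := by
  decide +kernel

theorem genB2_ok : ∀ r : Fin chevB2.nroots,
    wordRowsB (D := chevB2) xbB2 ((gWordsB2.getD r []).flatMap fun i => sWordsB2.getD i []) =
      wordRowsB (D := chevB2) xbB2 [r.val] ∧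
      (∀ i ∈ gWordsB2.getD r [], i < 5) ∧
      ∀ s ∈ (gWordsB2.getD r []).flatMap fun i => sWordsB2.getD i [], s < chevB2.nroots := by
  decide +kernel

theorem nonempty_equiv_perm_six {F : Type*} [Field F] [Fintype F] (hF : Fintype.card F = 2) :
    Nonempty (↥(chevB2.group F) ≃* Equiv.Perm (Fin 6)) := by
  classical
  have := charP_two_of_card_two hF
  let f : ZMod 2 →+* F := ZMod.castHom dvd_rfl F
  have hC : Cert chevB2 _ := cert_B2
  let s : Fin 5 → GL chevB2.Idx F := fun i => wordG hC F (sWordsB2.getD i [])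
  have wA : ∀ a b : List ℕ, wordG hC F (a ++ b) = wordG hC F a * wordG hC F b := fun a b => by
    simp [wordG]
  have wR : ∀ (a : List ℕ) (k : ℕ), wordG hC F (List.replicate k a).flatten = wordG hC F a ^ k := by
    intro a k
    induction k with
    | zero => simp [wordG]
    | succ k ih => rw [List.replicate_succ, List.flatten_cons, wA, ih, pow_succ']
  have hlift : (CoxeterMatrix.A 5).IsLiftable s := fun i j => by
    have e := wordG_eq (F := F) hC xbB2_ok f (relB2_ok i j).2 (w' := []) (by simp) (relB2_ok i j).1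
    rw [relWordB2, wR, wA] at e
    simpa [wordG, s] using e
  obtain ⟨cs, hcs⟩ := CfsgLib.Generators.exists_coxeterSystem_perm 5
  let H : Equiv.Perm (Fin 6) →* GL chevB2.Idx F := cs.lift ⟨s, hlift⟩
  have hs : ∀ i, H (cs.simple i) = s i := fun i => cs.lift_apply_simple hlift i
  have hsmem : ∀ w, wordG hC F w ∈ chevB2.group F := fun w => by
    refine Subgroup.list_prod_mem _ fun x hx => ?_
    obtain ⟨r, -, rfl⟩ := List.mem_map.1 hx
    exact xG_mem_group hC r 1
  have hrange : H.range = chevB2.group F := by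
    refine le_antisymm ?_ ?_
    · rintro _ ⟨g, rfl⟩
      induction g using cs.simple_induction with
      | simple i => rw [hs]; exact hsmem _
      | one => rw [map_one]; exact Subgroup.one_mem _
      | mul a b ha hb => rw [map_mul]; exact Subgroup.mul_mem _ ha hb
    · rw [group_eq_closure_two hF hC, Subgroup.closure_le]
      rintro _ ⟨r, rfl⟩
      obtain ⟨e, hi, hlt⟩ := genB2_ok r
      have e' := wordG_eq (F := F) hC xbB2_ok f hlt (w' := [r.val]) (by simp [r.isLt]) e
      show xG hC r (1 : F) ∈ H.range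
      rw [show xG hC r (1 : F) = wordG hC F [r.val] by simp [wordG], ← e']
      clear e e' hlt
      generalize gWordsB2.getD r [] = l at hi
      induction l with
      | nil => simp [wordG]
      | cons i l ih =>
        rw [List.flatMap_cons, wA]
        refine Subgroup.mul_mem _ ⟨cs.simple ⟨i, hi i List.mem_cons_self⟩, hs _⟩ ?_
        exact ih fun k hk => hi k (List.mem_cons_of_mem _ hk)
  have hcard : Nat.card (chevB2.group F) = 720 := by
    have h := cardB2 (F := F)
    rw [hF] at h
    simpa [chevB2] using h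
  have hbij : Function.Bijective H.rangeRestrict := by
    refine (Nat.bijective_iff_surjective_and_card _).2 ⟨H.rangeRestrict_surjective, ?_⟩
    rw [hrange, hcard, Nat.card_perm, Nat.card_fin]
    rfl
  exact ⟨((MulEquiv.ofBijective H.rangeRestrict hbij).trans (MulEquiv.subgroupCongr hrange)).symm⟩

end CfsgLib.Chevalley
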