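import Cfsg.Agent.Lib.Chevalley.CharTorus
import Cfsg.Agent.Lib.Chevalley.Bruhat

/-! A character matrix lying in the group lies in the diagonal subgroup. -/

set_option autoImplicit false
set_option linter.unusedSectionVars false
set_option linter.unusedSimpArgs false

namespace CfsgLib.Chevalley

open Cfsg.Lie

variable {D : ChevalleyDatum} {A : Aux} {F : Type*} [Field F]

theorem charDiag_mem_diagonal (h : Full D A) {χ : ℕ → Fˣ} (hχ : D.IsRootCharacter χ)
    {g : GL D.Idx F} (hg : g ∈ D.group F)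
    (hgχ : (g : Matrix D.Idx D.Idx F) = D.charDiag F χ) : g ∈ D.diagonalSubgroup F := by
  have hone : D.charDiag F χ * D.charDiag F (fun s => (χ s)⁻¹) = 1 := by
    rw [ChevalleyDatum.charDiag, ChevalleyDatum.charDiag, Matrix.diagonal_mul_diagonal,
      ← Matrix.diagonal_one]
    congr 1
    funext a
    rcases a with j | s <;> simp
  have hinv : ((g⁻¹ : GL D.Idx F) : Matrix D.Idx D.Idx F) = D.charDiag F fun s => (χ s)⁻¹ := by
    refine Units.inv_eq_of_mul_eq_one_right ?_
    rw [hgχ, hone]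
  have hnorm : ∀ v ∈ D.posUnipotent F, g * v * g⁻¹ ∈ D.posUnipotent F := by
    refine rootsU_conj_le h.cert (S := {r | D.IsPosRoot r}) fun r hr t => ?_
    have e : g * xG h.cert r t * g⁻¹ = xG h.cert r ((χ r : F) * t) :=
      Units.ext (by simp [hgχ, hinv, charDiag_conj_x h hχ hr.1])
    rw [e]
    exact xG_mem_rootsU (S := {r | D.IsPosRoot r}) h.cert hr _
  obtain ⟨u, hu, n, hn, v, hv, e⟩ := exists_bnu h hg
  set w := n * g⁻¹ with hw
  have hwU : w ∈ D.posUnipotent F := by
    have e' : n = u⁻¹ * g * v⁻¹ := by rw [e]; group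
    rw [hw, e', show u⁻¹ * g * v⁻¹ * g⁻¹ = u⁻¹ * (g * v⁻¹ * g⁻¹) by group]
    exact mul_mem (inv_mem hu) (hnorm _ (inv_mem hv))
  have hwe : ∀ a b, (w : Matrix D.Idx D.Idx F) a b =
      (n : Matrix D.Idx D.Idx F) a b *
        Sum.elim (fun _ => (1 : F)) (fun s : Fin D.nroots => (((χ s)⁻¹ : Fˣ) : F)) b := by
    intro a b
    rw [hw, Units.val_mul, hinv, ChevalleyDatum.charDiag, Matrix.mul_diagonal]
  have hdiag : ∀ a, (w : Matrix D.Idx D.Idx F) a a = 1 := by
    intro a
    by_contra hne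
    have := raiseBy_posU h hwU a a
      (by rw [Matrix.sub_apply, Matrix.one_apply_eq]; exact sub_ne_zero.2 hne)
    omega
  obtain ⟨σ, η, hA⟩ := exists_acts h hn
  have hfix : ∀ s, σ s = s := by
    intro s
    have e1 := hdiag (Sum.inr s)
    rw [hwe, hA.col] at e1
    by_contra hne
    rw [if_neg fun he => hne (Sum.inr.inj he).symm, zero_mul] at e1
    exact zero_ne_one e1
  have hnH : n ∈ D.diagonalSubgroup F :=
    mem_diagonal_of_perm h hn hA fun i => by rw [hfix]; exact h.simple_pos i.isLt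
  obtain ⟨c, hc⟩ := (diagonalSubgroup_eq_range h (F := F)) ▸ hnH
  have hw1 : w = 1 := by
    refine Units.ext (Matrix.ext fun a b => ?_)
    by_cases hab : a = b
    · subst hab; rw [hdiag]; simp
    · rw [hwe, ← hc, coe_torusHom, Matrix.diagonal_apply_ne _ hab, zero_mul, Units.val_one,
        Matrix.one_apply_ne hab]
  rwa [← mul_inv_eq_one.1 hw1]

end CfsgLib.Chevalley
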