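import Cfsg.Agent.Lib.Chevalley.WeylCount
import Cfsg.Agent.Lib.Chevalley.ExtraData

/-! Coset tables of the Weyl group of type B2. -/

set_option autoImplicit false
set_option maxRecDepth 100000

namespace CfsgLib.Chevalley

open Cfsg.Lie

/-- The packed fundamental reflections. -/
def reflTabB2 : List ℕ := [289921455100330243, 505817143170892288]

/-- Level 0. -/
def levelB2_0 : CosetLevel where
  imgs := [1029, 1794]
  par := [(0, 0), (0, 0)]
  act := [[1], [0]]
  exps := [0, 1]

theorem levelB2_0_ok : levelB chevB2 auxB2 reflTabB2 0 levelB2_0 = true := by decide +kernel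

/-- Level 1. -/
def levelB2_1 : CosetLevel where
  imgs := [1029, 774, 6, 5]
  par := [(0, 0), (1, 0), (0, 1), (1, 2)]
  act := [[4, 1], [2, 0], [1, 3], [4, 2]]
  exps := [0, 1, 2, 3]

theorem levelB2_1_ok : levelB chevB2 auxB2 reflTabB2 1 levelB2_1 = true := by decide +kernel

theorem reflTabB2_ok : reflTabB chevB2 auxB2 reflTabB2 = true := by decide +kernel

/-- The levels. -/
def levelsB2 : List CosetLevel := [levelB2_0, levelB2_1]

theorem levelsB2_ok : ∀ k < chevB2.rank,
    levelB chevB2 auxB2 reflTabB2 k (levelsB2.getD k default) = true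
  | 0, _ => levelB2_0_ok
  | 1, _ => levelB2_1_ok
  | n + 2, hn => absurd hn (by show ¬ n + 2 < 2; omega)

end CfsgLib.Chevalley
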