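import Cfsg.Agent.Lib.Chevalley.TwistedTorusCentralizer
import Cfsg.Agent.Lib.Chevalley.TorusData
import Mathlib.FieldTheory.Finite.Extension
import Mathlib.RingTheory.IntegralDomain

/-!
The torus of order `q⁴ + 1` of `F₄(q)`: a twisted torus element of this order generates its
own centraliser.
-/

set_option autoImplicit false
set_option maxRecDepth 100000

open Matrix Cfsg.Lie CfsgLib.Chevalley.Twist

namespace CfsgLib.Chevalley.F4TwistedTorus

/-- All the certificates of F4. -/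
theorem full : Full chevF4 auxF4 := ⟨⟨cert_F4, posF4, by simp⟩, extraF4⟩

/-- A root. -/
abbrev rt (r : Fin 48) : Fin chevF4.nroots := r

/-- The four reflection steps: a word and a simple root. -/
def refl (l : List (Fin 4)) (i : Fin 4) : Equiv.Perm (Fin chevF4.nroots) :=
  wPerm cert_F4 (l ++ i :: l.reverse)

/-- The Weyl permutation of the torus. -/
def wF : Equiv.Perm (Fin chevF4.nroots) :=
  refl [2, 1, 2, 3, 0, 1, 2] 2 * (refl [0, 1, 2] 2 * (refl [1, 2, 1, 0] 0 * (refl [3, 2, 1, 2, 3, 0, 1, 2] 2)))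

/-- The coordinates of a root in the basis `r₀, w r₀, w² r₀, w³ r₀`. -/
def coef (s i : ℕ) : ℤ :=
  ((([[2, -1, 0, 1],
    [1, 1, -1, 1],
    [1, 0, -1, 0],
    [1, 0, 0, 0],
    [1, 0, 1, 0],
    [1, -1, 1, -1],
    [0, 1, 0, -1],
    [1, 0, -1, 1],
    [1, 0, 0, 1],
    [1, -1, 0, 0],
    [0, 1, -1, 0],
    [1, -1, 1, 0],
    [0, 1, 0, 0],
    [0, 0, 0, -1],
    [0, 0, 1, -1],
    [1, 0, -1, 2],
    [1, -1, -1, 1],
    [0, 1, -2, 1],
    [1, -1, 0, 1],
    [0, 1, -1, 1],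
    [0, 0, -1, 0],
    [1, -1, 1, 1],
    [0, 1, 0, 1],
    [1, -2, 1, 0],
    [-1, 2, -1, 0],
    [0, -1, 0, -1],
    [-1, 1, -1, -1],
    [0, 0, 1, 0],
    [0, -1, 1, -1],
    [-1, 1, 0, -1],
    [0, -1, 2, -1],
    [-1, 1, 1, -1],
    [-1, 0, 1, -2],
    [0, 0, -1, 1],
    [0, 0, 0, 1],
    [0, -1, 0, 0],
    [-1, 1, -1, 0],
    [0, -1, 1, 0],
    [-1, 1, 0, 0],
    [-1, 0, 0, -1],
    [-1, 0, 1, -1],
    [0, -1, 0, 1],
    [-1, 1, -1, 1],
    [-1, 0, -1, 0],
    [-1, 0, 0, 0],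
    [-1, 0, 1, 0],
    [-1, -1, 1, -1],
    [-2, 1, 0, -1]] : List (List ℤ))).getD s []).getD i 0

/-- The exponents of the torus element. -/
def expK (k i : ℕ) : ℤ :=
  ((([[-1, 0, 0, 0], [-2, 0, 1, -1], [-3, 0, 1, -2], [-2, 1, 0, -1]] : List (List ℤ))).getD k []).getD i 0

/-- The basis. -/
def base (i : ℕ) : ℕ := ([3, 12, 27, 34] : List ℕ).getD i 0

/-- The exponent of a root. -/
def ex (q : ℕ) (s : ℕ) : ℤ :=
  coef s 0 + coef s 1 * q + coef s 2 * (q : ℤ) ^ 2 + coef s 3 * (q : ℤ) ^ 3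

theorem coef_cartan : ∀ (s : Fin chevF4.nroots) (k : Fin 4),
    chevF4.cartan k s = coef s 0 * chevF4.cartan k (base 0) + coef s 1 * chevF4.cartan k (base 1) +
      coef s 2 * chevF4.cartan k (base 2) + coef s 3 * chevF4.cartan k (base 3) := by
  decide +kernel

theorem expK_cartan : ∀ (s : Fin chevF4.nroots) (i : Fin 4),
    chevF4.cartan 0 s * expK 0 i + chevF4.cartan 1 s * expK 1 i + chevF4.cartan 2 s * expK 2 i +
      chevF4.cartan 3 s * expK 3 i = coef s i := by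
  decide +kernel

theorem coef_wF : ∀ s : Fin chevF4.nroots, coef (wF s) 0 = -coef s 3 ∧ coef (wF s) 1 = coef s 0 ∧
    coef (wF s) 2 = coef s 1 ∧ coef (wF s) 3 = coef s 2 := by
  decide +kernel

theorem wF_base : (wF (rt 3) : ℕ) = base 1 ∧ (wF (rt 12) : ℕ) = base 2 ∧
    (wF (rt 27) : ℕ) = base 3 ∧ (wF (rt 34) : ℕ) = chevF4.neg 3 := by
  decide +kernel

theorem coef_bound : ∀ s : Fin chevF4.nroots,
    ∀ i : Fin 4, |coef s i| ≤ 2 := by
  decide +kernel

theorem coef_ne_zero : ∀ s : Fin chevF4.nroots,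
    coef s 0 ≠ 0 ∨ coef s 1 ≠ 0 ∨ coef s 2 ≠ 0 ∨ coef s 3 ≠ 0 := by
  decide +kernel

theorem coef_injective : ∀ s u : Fin chevF4.nroots,
    coef s 0 - coef u 0 ≠ 0 ∨ coef s 1 - coef u 1 ≠ 0 ∨ coef s 2 - coef u 2 ≠ 0 ∨
      coef s 3 - coef u 3 ≠ 0 ∨ s = u := by
  decide +kernel

theorem ex_small_ne_zero : ∀ q : Fin 5, 2 ≤ (q : ℕ) → ∀ s : Fin chevF4.nroots,
    ¬ ((q : ℕ) : ℤ) ^ 4 + 1 ∣ ex q s := by
  decide +kernel

/-- The candidates for the images of the simple roots. -/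
def sameEx (q : ℕ) (t s : Fin chevF4.nroots) : Bool :=
  (ex q t - ex q s) % ((q : ℤ) ^ 4 + 1) == 0

theorem small_stab : ∀ q : Fin 5, 2 ≤ (q : ℕ) →
    ∀ t₀ : Fin chevF4.nroots, sameEx q t₀ (rt 33) = true →
    ∀ t₁ : Fin chevF4.nroots, sameEx q t₁ (rt 27) = true →
    ∀ t₂ : Fin chevF4.nroots, sameEx q t₂ (rt 25) = true →
    ∀ t₃ : Fin chevF4.nroots, sameEx q t₃ (rt 24) = true →
      (t₀ = rt 33 ∧ t₁ = rt 27 ∧ t₂ = rt 25 ∧ t₃ = rt 24) ∨
      ∀ u : Fin chevF4.nroots, ∃ i : Fin 4, crd auxF4 i u ≠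
        crd auxF4 0 0 * crd auxF4 i t₀ + crd auxF4 1 0 * crd auxF4 i t₁ +
          crd auxF4 2 0 * crd auxF4 i t₂ + crd auxF4 3 0 * crd auxF4 i t₃ := by
  decide +kernel

theorem crd_injective : ∀ s u : Fin chevF4.nroots,
    (∀ i : Fin 4, crd auxF4 i s = crd auxF4 i u) → s = u := by
  decide +kernel

theorem simple_roots : (smp cert_F4 (0 : Fin 4) : ℕ) = 33 ∧ (smp cert_F4 (1 : Fin 4) : ℕ) = 27 ∧
    (smp cert_F4 (2 : Fin 4) : ℕ) = 25 ∧ (smp cert_F4 (3 : Fin 4) : ℕ) = 24 := by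
  decide +kernel

theorem step_data :
    wPerm cert_F4 ([3, 2, 1, 2, 3, 0, 1, 2] : List (Fin 4)) (smp cert_F4 (2 : Fin 4)) = rt 0 ∧
    wPerm cert_F4 ([1, 2, 1, 0] : List (Fin 4)) (smp cert_F4 (0 : Fin 4)) = rt 10 ∧
    wPerm cert_F4 ([0, 1, 2] : List (Fin 4)) (smp cert_F4 (2 : Fin 4)) = rt 6 ∧
    wPerm cert_F4 ([2, 1, 2, 3, 0, 1, 2] : List (Fin 4)) (smp cert_F4 (2 : Fin 4)) = rt 1 := by
  decide +kernel

theorem orbit_data :
    let w₁ := refl [3, 2, 1, 2, 3, 0, 1, 2] 2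
    let w₂ := refl [1, 2, 1, 0] 0 * w₁
    let w₃ := refl [0, 1, 2] 2 * w₂
    w₁ (rt 10) = rt 10 ∧ (w₂ ^ 2) (rt 6) = rt 6 ∧ (w₃ ^ 4) (rt 1) = rt 1 ∧
      orthB chevF4 ((w₂ ^ 1) (rt 6) : Fin chevF4.nroots) 6 = true ∧
      orthB chevF4 ((w₃ ^ 1) (rt 1) : Fin chevF4.nroots) 1 = true ∧
      orthB chevF4 ((w₃ ^ 2) (rt 1) : Fin chevF4.nroots) 1 = true ∧
      orthB chevF4 ((w₃ ^ 3) (rt 1) : Fin chevF4.nroots) 1 = true := by
  decide +kernel

variable {F K : Type*} [Field F] [Fintype F] [Field K] [Algebra F K]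

theorem twistWeyl_wF [DecidableEq F] {σ : K ≃ₐ[F] K} (hσ : IsOfFinOrder σ)
    (hfix : ∀ y, σ y = y → ∃ x, algebraMap F K x = y)
    (hdvd : 4 * Fintype.card (GL (Fin 2) F) ∣ orderOf σ) : TwistWeyl full σ wF := by
  have hD : chevF4 ∈ [chevG2, chevB2, chevD4, chevF4, chevE6, chevE7, chevE8] := by simp
  obtain ⟨e1, e2, e3, e4⟩ := step_data
  obtain ⟨o2, o3, o4, b3, c1, c2, c3⟩ := orbit_data
  have s1 := (twistWeyl_one full σ).step full hD hσ hfix _ _ _ e1 1 Nat.one_pos (by simp)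
    (fun k hk hk0 => absurd hk0 (by omega)) (dvd_trans (Nat.mul_dvd_mul_right (by norm_num) _) hdvd)
  rw [mul_one] at s1
  have s2 := s1.step full hD hσ hfix _ _ _ e2 1 Nat.one_pos (by rw [pow_one]; exact o2)
    (fun k hk hk0 => absurd hk0 (by omega)) (dvd_trans (Nat.mul_dvd_mul_right (by norm_num) _) hdvd)
  have s3 := s2.step full hD hσ hfix _ _ _ e3 2 (by norm_num) o3
    (fun k hk hk0 => by
      obtain rfl : k = 1 := by omega
      simp only [refl] at b3
      exact b3)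
    (dvd_trans (Nat.mul_dvd_mul_right (by norm_num) _) hdvd)
  exact s3.step full hD hσ hfix _ _ _ e4 4 (by norm_num) o4
    (fun k hk hk0 => by
      rcases (by omega : k = 1 ∨ k = 2 ∨ k = 3) with rfl | rfl | rfl
      exacts [c1, c2, c3]) hdvd

theorem abs_ex_lt {q : ℤ} (hq : 5 ≤ q) {a b c d : ℤ} (ha : |a| ≤ 4) (hb : |b| ≤ 4) (hc : |c| ≤ 4)
    (hd : |d| ≤ 4) : |a + b * q + c * q ^ 2 + d * q ^ 3| < q ^ 4 + 1 := by
  rw [abs_le] at ha hb hc hd
  rw [abs_lt]
  have h2 : 5 * q ≤ q ^ 2 := by nlinarith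
  have h3 : 5 * q ^ 2 ≤ q ^ 3 := by nlinarith
  have h4 : 5 * q ^ 3 ≤ q ^ 4 := by nlinarith
  constructor <;> nlinarith

theorem eq_zero_of_digits {q : ℤ} (hq : 5 ≤ q) {a b c d : ℤ} (ha : |a| ≤ 4) (hb : |b| ≤ 4)
    (hc : |c| ≤ 4) (hd : |d| ≤ 4) (h : q ^ 4 + 1 ∣ a + b * q + c * q ^ 2 + d * q ^ 3) :
    a = 0 ∧ b = 0 ∧ c = 0 ∧ d = 0 := by
  have h0 := Int.eq_zero_of_abs_lt_dvd h (abs_ex_lt hq ha hb hc hd)
  have key : ∀ x y : ℤ, |x| ≤ 4 → x + y * q = 0 → x = 0 ∧ y = 0 := by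
    intro x y hx e
    have hdx : q ∣ x := ⟨-y, by linarith⟩
    have hx0 : x = 0 := Int.eq_zero_of_abs_lt_dvd hdx (by omega)
    refine ⟨hx0, ?_⟩
    rw [hx0, zero_add] at e
    exact (mul_eq_zero.1 e).resolve_right (by omega)
  obtain ⟨ha0, h1⟩ := key a (b + c * q + d * q ^ 2) ha (by linear_combination h0)
  obtain ⟨hb0, h2⟩ := key b (c + d * q) hb (by linear_combination h1)
  obtain ⟨hc0, hd0⟩ := key c d hc h2
  exact ⟨ha0, hb0, hc0, hd0⟩

theorem not_dvd_ex {q : ℕ} (hq : 2 ≤ q) (s : Fin chevF4.nroots) :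
    ¬ ((q : ℤ) ^ 4 + 1) ∣ ex q s := by
  by_cases h5 : q < 5
  · exact ex_small_ne_zero ⟨q, h5⟩ hq s
  intro h
  have hb := coef_bound s
  obtain ⟨a, b, c, d⟩ := eq_zero_of_digits (by omega) ((hb 0).trans (by norm_num))
    ((hb 1).trans (by norm_num)) ((hb 2).trans (by norm_num)) ((hb 3).trans (by norm_num)) h
  rcases coef_ne_zero s with h | h | h | h
  exacts [h a, h b, h c, h d]

theorem perm_eq_one {q : ℕ} (hq : 2 ≤ q) {n : GL chevF4.Idx K}
    {π : Equiv.Perm (Fin chevF4.nroots)} {η : Fin chevF4.nroots → K}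
    (hA : Acts full.cert n π η)
    (he : ∀ s : Fin chevF4.nroots, ((q : ℤ) ^ 4 + 1) ∣ ex q (π s) - ex q s) : π = 1 := by
  by_cases h5 : q < 5
  · have hs : ∀ s : Fin chevF4.nroots, sameEx q (π s) s = true := fun s => by
      simpa [sameEx] using Int.emod_eq_zero_of_dvd (he s)
    have hlin : ∀ (s : Fin chevF4.nroots) (i : Fin 4), crd auxF4 i (π s) =
        crd auxF4 0 s * crd auxF4 i (π (rt 33)) + crd auxF4 1 s * crd auxF4 i (π (rt 27)) +
          crd auxF4 2 s * crd auxF4 i (π (rt 25)) + crd auxF4 3 s * crd auxF4 i (π (rt 24)) := by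
      intro s i
      have e := hA.lin i i.isLt s
      change _ = ∑ j : Fin 4, _ at e
      rw [Fin.sum_univ_four] at e
      obtain ⟨p0, p1, p2, p3⟩ := simple_roots
      rw [e, show smp full.cert (0 : Fin 4) = rt 33 from Fin.ext p0,
        show smp full.cert (1 : Fin 4) = rt 27 from Fin.ext p1,
        show smp full.cert (2 : Fin 4) = rt 25 from Fin.ext p2,
        show smp full.cert (3 : Fin 4) = rt 24 from Fin.ext p3]
      rfl
    rcases small_stab ⟨q, h5⟩ hq _ (hs _) _ (hs _) _ (hs _) _ (hs _) with ⟨a, b, c, d⟩ | hno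
    · refine Equiv.ext fun s => crd_injective _ _ fun i => ?_
      have e1 := hlin s i
      have e2 := (acts_one (F := K) full.cert).lin i i.isLt s
      rw [a, b, c, d] at e1
      rw [Equiv.Perm.one_apply, e1]
      change _ = ∑ j : Fin 4, _ at e2
      rw [Fin.sum_univ_four] at e2
      obtain ⟨p0, p1, p2, p3⟩ := simple_roots
      simp only [Equiv.Perm.one_apply] at e2
      rw [e2, show smp full.cert (0 : Fin 4) = rt 33 from Fin.ext p0,
        show smp full.cert (1 : Fin 4) = rt 27 from Fin.ext p1,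
        show smp full.cert (2 : Fin 4) = rt 25 from Fin.ext p2,
        show smp full.cert (3 : Fin 4) = rt 24 from Fin.ext p3]
      rfl
    · obtain ⟨i, hi⟩ := hno (π (rt 0))
      exact absurd (hlin (rt 0) i) hi
  · refine Equiv.ext fun s => ?_
    have h := he s
    have hb := coef_bound (π s)
    have hb' := coef_bound s
    have bd : ∀ i : Fin 4, |coef (π s) i - coef s i| ≤ 4 := fun i =>
      (abs_sub _ _).trans (by linarith [hb i, hb' i])
    have e : ex q (π s) - ex q s = (coef (π s) 0 - coef s 0) + (coef (π s) 1 - coef s 1) * (q : ℤ) +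
        (coef (π s) 2 - coef s 2) * (q : ℤ) ^ 2 + (coef (π s) 3 - coef s 3) * (q : ℤ) ^ 3 := by
      simp only [ex]; ring
    rw [e] at h
    obtain ⟨a, b, c, d⟩ := eq_zero_of_digits (by omega) (bd 0) (bd 1) (bd 2) (bd 3) h
    rcases coef_injective (π s) s with h | h | h | h | h
    exacts [absurd a h, absurd b h, absurd c h, absurd d h, h]

theorem chi_four (s : Fin chevF4.nroots) (c : Fin chevF4.rank → Kˣ) :
    chi chevF4 s c = c (0 : Fin 4) ^ chevF4.cartan 0 s * c (1 : Fin 4) ^ chevF4.cartan 1 s *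
      c (2 : Fin 4) ^ chevF4.cartan 2 s * c (3 : Fin 4) ^ chevF4.cartan 3 s := by
  show ∏ k : Fin 4, c k ^ chevF4.cartan k s = _
  rw [Fin.prod_univ_four]
  rfl

theorem exists_selfCentralizing {q : ℕ} (hF : Fintype.card F = q) :
    ∃ H : Subgroup ↥(chevF4.group F), IsCyclic ↥H ∧ Nat.card ↥H = q ^ 4 + 1 ∧
      Subgroup.centralizer (H : Set ↥(chevF4.group F)) = H := by
  classical
  have hq : 2 ≤ q := hF ▸ Fintype.one_lt_card
  obtain ⟨p, hp⟩ := CharP.exists F
  haveI : Fact p.Prime := ⟨CharP.char_is_prime F p⟩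
  set d := 8 * Fintype.card (GL (Fin 2) F) with hd
  haveI : NeZero d := ⟨by positivity⟩
  let K := FiniteField.Extension F p d
  letI : Fintype K := Fintype.ofFinite K
  set σ : K ≃ₐ[F] K := FiniteField.frobeniusAlgEquivOfAlgebraic F K
  have hord : orderOf σ = d := by
    rw [FiniteField.orderOf_frobeniusAlgEquivOfAlgebraic, FiniteField.finrank_extension]
  have hσq : ∀ y, σ y = y ^ q := fun y => by
    rw [← hF]
    rfl
  have hfix : ∀ y : K, σ y = y → ∃ x, algebraMap F K x = y := by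
    intro y hy
    refine (IsGalois.mem_range_algebraMap_iff_fixed y).2 fun f => ?_
    obtain ⟨k, rfl⟩ := (FiniteField.bijective_frobeniusAlgEquivOfAlgebraic_pow F K).2 f
    show (σ ^ (k : ℕ)) y = y
    generalize (k : ℕ) = j
    induction j with
    | zero => rfl
    | succ j ih => rw [pow_succ, AlgEquiv.mul_apply, hy, ih]
  have hdvd : 4 * Fintype.card (GL (Fin 2) F) ∣ orderOf σ := by
    rw [hord, hd]; exact Nat.mul_dvd_mul_right (by norm_num) _
  have hw := twistWeyl_wF (isOfFinOrder_of_finite σ) hfix hdvd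
  -- an element of order `q ^ 4 + 1`
  have hN : q ^ 4 + 1 ∣ Fintype.card Kˣ := by
    rw [Fintype.card_units, ← Nat.card_eq_fintype_card, Module.natCard_eq_pow_finrank (K := F),
      Nat.card_eq_fintype_card, hF, FiniteField.finrank_extension, hd]
    refine dvd_trans ⟨q ^ 4 - 1, ?_⟩ (Nat.pow_sub_one_dvd_pow_sub_one q (dvd_mul_right 8 _))
    rw [← Nat.sq_sub_sq, ← pow_mul, one_pow]
  obtain ⟨γ, hγ⟩ := IsCyclic.exists_ofOrder_eq_natCard (α := Kˣ)
  obtain ⟨r, hr⟩ := hN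
  set α := γ ^ r with hα'
  have hα : orderOf α = q ^ 4 + 1 := by
    have hr0 : r ≠ 0 := by
      rintro rfl
      rw [mul_zero] at hr
      exact Fintype.card_ne_zero hr
    rw [hα', orderOf_pow' _ hr0, hγ, Nat.card_eq_fintype_card, hr, Nat.gcd_mul_left_left,
      Nat.mul_div_cancel _ (Nat.pos_of_ne_zero hr0)]
  have hαN : ((orderOf α : ℕ) : ℤ) = (q : ℤ) ^ 4 + 1 := by rw [hα]; push_cast; ring
  let c : Fin chevF4.rank → Kˣ := fun k =>
    α ^ (expK k 0 + expK k 1 * q + expK k 2 * (q : ℤ) ^ 2 + expK k 3 * (q : ℤ) ^ 3)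
  have hchi : ∀ s : Fin chevF4.nroots, chi chevF4 s c = α ^ ex q s := by
    intro s
    rw [chi_four]
    simp only [c, ← _root_.zpow_mul, ← _root_.zpow_add]
    congr 1
    have h0 := expK_cartan s 0
    have h1 := expK_cartan s 1
    have h2 := expK_cartan s 2
    have h3 := expK_cartan s 3
    simp only [ex]
    simp only [Fin.val_zero, Fin.val_one, Fin.val_two,
      show ((3 : Fin 4) : ℕ) = 3 from rfl] at h0 h1 h2 h3 ⊢
    linear_combination h0 + (q : ℤ) * h1 + (q : ℤ) ^ 2 * h2 + (q : ℤ) ^ 3 * h3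
  have hexw : ∀ s : Fin chevF4.nroots,
      ex q (wF s) = ex q s * q - coef s 3 * ((q : ℤ) ^ 4 + 1) := by
    intro s
    obtain ⟨a, b, e, f⟩ := coef_wF s
    simp only [ex, a, b, e, f]
    ring
  have hα1 : α ^ ((q : ℤ) ^ 4 + 1) = 1 := by rw [← hαN, zpow_natCast, pow_orderOf_eq_one]
  have hc : ∀ s : Fin chevF4.nroots, chi chevF4 (wF s) c = chi chevF4 s c ^ q := by
    intro s
    rw [hchi, hchi, hexw, _root_.zpow_sub, mul_comm (coef s 3), _root_.zpow_mul α _ (coef s 3),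
      hα1, _root_.one_zpow, inv_one, mul_one, _root_.zpow_mul, zpow_natCast]
  have hr₀ : chi chevF4 (rt 3 : Fin chevF4.nroots) c = α := by
    rw [hchi]
    show α ^ (coef 3 0 + coef 3 1 * (q : ℤ) + coef 3 2 * (q : ℤ) ^ 2 + coef 3 3 * (q : ℤ) ^ 3) = α
    rw [show coef 3 0 = 1 from rfl, show coef 3 1 = 0 from rfl, show coef 3 2 = 0 from rfl,
      show coef 3 3 = 0 from rfl]
    simp
  have hinj : Function.Injective (torusHom chevF4 K) :=
    ReflectionsSpinor.ChevField.torusHom_injective full (by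
      have e := card_diagonalF4 (F := K)
      rw [one_mul] at e
      exact e)
  obtain ⟨H, h1, h2, h3⟩ := exists_selfCentralizing_of_twist full hinj hfix hσq hw c hc
    (fun s hs => by
      rw [hchi, ← orderOf_dvd_iff_zpow_eq_one, hαN] at hs
      exact not_dvd_ex hq s hs)
    (fun n π η hA he => perm_eq_one hq hA fun s => by
      have := he s
      rw [hchi, hchi, zpow_eq_zpow_iff_modEq, Int.modEq_comm, Int.modEq_iff_dvd, hαN] at this
      exact this)
    (fun c' hc' => by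
      obtain ⟨w1, w2, w3, w4⟩ := wF_base
      set β := chi chevF4 (rt 3 : Fin chevF4.nroots) c' with hβ
      have b1 : chi chevF4 (base 1) c' = β ^ q := by rw [← w1, hc']
      have b2 : chi chevF4 (base 2) c' = β ^ (q * q) := by
        rw [← w2, hc', pow_mul]; exact congrArg (· ^ q) b1
      have b3 : chi chevF4 (base 3) c' = β ^ (q * q * q) := by
        rw [← w3, hc', pow_mul _ (q * q) q]; exact congrArg (· ^ q) b2
      have b4 : β⁻¹ = β ^ (q * q * q * q) := by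
        have e : chi chevF4 (wF (rt 34)) c' = β⁻¹ := by
          rw [w4]; exact chi_simple_neg cert_F4 (rt 3) c'
        rw [← e, hc', pow_mul _ (q * q * q) q]
        exact congrArg (· ^ q) b3
      have hβN : β ^ (q ^ 4 + 1) = 1 := by
        rw [pow_succ, show q ^ 4 = q * q * q * q by ring, ← b4, inv_mul_cancel]
      haveI : NeZero (orderOf (α : K)) := ⟨by rw [orderOf_units, hα]; omega⟩
      obtain ⟨j, -, hj⟩ := (IsPrimitiveRoot.orderOf (α : K)).eq_pow_of_pow_eq_one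
        (ξ := (β : K)) (by rw [orderOf_units, hα, ← Units.val_pow_eq_pow_val, hβN, Units.val_one])
      have hβα : β = α ^ (j : ℤ) := Units.ext (by rw [zpow_natCast, Units.val_pow_eq_pow_val, hj])
      refine ⟨j, fun s => ?_⟩
      have e : chi chevF4 s c' = β ^ ex q s := by
        have hb0 : chi chevF4 (base 0) c' = β := rfl
        have hsplit : chi chevF4 s c' = chi chevF4 (base 0) c' ^ coef s 0 *
            chi chevF4 (base 1) c' ^ coef s 1 * chi chevF4 (base 2) c' ^ coef s 2 *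
            chi chevF4 (base 3) c' ^ coef s 3 := by
          show (∏ k : Fin chevF4.rank, c' k ^ chevF4.cartan k s) = _
          show _ = (∏ k : Fin chevF4.rank, c' k ^ chevF4.cartan k (base 0)) ^ coef s 0 *
            (∏ k : Fin chevF4.rank, c' k ^ chevF4.cartan k (base 1)) ^ coef s 1 *
            (∏ k : Fin chevF4.rank, c' k ^ chevF4.cartan k (base 2)) ^ coef s 2 *
            (∏ k : Fin chevF4.rank, c' k ^ chevF4.cartan k (base 3)) ^ coef s 3
          rw [← Finset.prod_zpow _ Finset.univ (coef s 0), ← Finset.prod_zpow _ Finset.univ (coef s 1),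
            ← Finset.prod_zpow _ Finset.univ (coef s 2), ← Finset.prod_zpow _ Finset.univ (coef s 3)]
          rw [← Finset.prod_mul_distrib, ← Finset.prod_mul_distrib, ← Finset.prod_mul_distrib]
          refine Finset.prod_congr rfl fun k _ => ?_
          rw [← _root_.zpow_mul, ← _root_.zpow_mul, ← _root_.zpow_mul, ← _root_.zpow_mul,
            ← _root_.zpow_add, ← _root_.zpow_add, ← _root_.zpow_add, coef_cartan s k]
          congr 1
          ring
        rw [hsplit, hb0, b1, b2, b3]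
        simp only [← zpow_natCast, ← _root_.zpow_mul, ← _root_.zpow_add, ex]
        congr 1
        push_cast
        ring
      rw [e, hchi, hβα, ← _root_.zpow_mul, ← _root_.zpow_mul, mul_comm])
  refine ⟨H, h1, ?_, h3⟩
  rw [h2, orderOf_torusHom full (α := α) (fun s => ex q s) hchi hr₀, hα]

end CfsgLib.Chevalley.F4TwistedTorus
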