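import Cfsg.Agent.Lib.Chevalley.AutExt

/-!
Automorphisms of `D₄` and `E₆` permuting the fundamental root elements along a symmetry of
the diagram send every root element to a signed root element.
-/

set_option autoImplicit false
set_option linter.unusedSimpArgs false
set_option linter.unusedSectionVars false
set_option maxRecDepth 100000

namespace CfsgLib.Chevalley

open Cfsg.Lie Sparse

/-- One root length: coroot coefficients are coordinates and off-diagonal Cartan integers are
negatives of bond numbers. -/
noncomputable def oneLengthB (D : ChevalleyDatum) (A : Aux) : Bool :=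
  lall (fun r => lall (fun i => fCor A r i == crd A i r) (List.range D.rank)) (List.range D.nroots) &&
    lall (fun i => lall (fun j => (i == j) || (D.cartan i (D.simple j) == -D.bonds i j))
      (List.range D.rank)) (List.range D.rank)

theorem oneLengthD4 : oneLengthB chevD4 auxD4 = true := by decide +kernel

theorem oneLengthE6 : oneLengthB chevE6 auxE6 = true := by decide +kernel

theorem extraFullD4 : Full chevD4 auxD4 := ⟨⟨cert_D4, posD4, by simp⟩, extraD4⟩

theorem extraFullE6 : Full chevE6 auxE6 := ⟨⟨cert_E6, posE6, by simp⟩, extraE6⟩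

theorem exists_oneLength {D : ChevalleyDatum} (hD : D ∈ [chevD4, chevE6]) :
    ∃ A, Full D A ∧ oneLengthB D A = true := by
  simp only [List.mem_cons, List.not_mem_nil, or_false] at hD
  rcases hD with rfl | rfl
  exacts [⟨_, extraFullD4, oneLengthD4⟩, ⟨_, extraFullE6, oneLengthE6⟩]

variable {D : ChevalleyDatum} {A : Aux} {F : Type*} [Field F]

theorem Full.eq_of_crd (h : Full D A) {u v : Fin D.nroots}
    (he : ∀ j, j < D.rank → crd A j u = crd A j v) : u = v := by
  refine Fin.ext (h.pos.phi_inj u.isLt v.isLt ?_)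
  exact congrArg List.sum (List.map_congr_left fun j hj => by rw [he j (List.mem_range.1 hj)])

theorem graph_root (h : Full D A) (h1 : oneLengthB D A = true)
    {π : Equiv.Perm (Fin D.rank)} (hπ : D.IsDiagramSymmetry π)
    {φ : ↥(D.group F) →* ↥(D.group F)}
    (hp : ∀ (i : Fin D.rank) (t : F),
      φ (xE h.cert (D.simple i) t) = xE h.cert (D.simple (π i)) t)
    (hn : ∀ (i : Fin D.rank) (t : F),
      φ (xE h.cert (D.neg (D.simple i)) t) = xE h.cert (D.neg (D.simple (π i))) t)
    (r : Fin D.nroots) :
    ∃ ε : F, (ε = 1 ∨ ε = -1) ∧ ∀ t : F, φ (xE h.cert r t) = xE h.cert (D.permRoot π r) (ε * t) := by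
  simp only [oneLengthB, lall_eq, List.all_eq_true, Bool.and_eq_true, List.mem_range,
    Bool.or_eq_true, beq_iff_eq] at h1
  obtain ⟨hcor, hbond⟩ := h1
  have hC := h.cert
  have hcart : ∀ i j : Fin D.rank,
      D.cartan (π i) (D.simple (π j)) = D.cartan i (D.simple j) := by
    intro i j
    by_cases hij : i = j
    · subst hij
      rw [cartan_simple_self hC, cartan_simple_self hC]
    · rw [((hbond (π i) (π i).isLt (π j) (π j).isLt).resolve_left fun e =>
          hij (π.injective (Fin.ext e))),
        ((hbond i i.isLt j j.isLt).resolve_left fun e => hij (Fin.ext e)), hπ i j hij]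
  suffices key : ∃ s : Fin D.nroots, (∀ j : Fin D.rank, crd A (π j) s = crd A j r) ∧
      ∃ ε : F, (ε = 1 ∨ ε = -1) ∧ ∀ t : F, φ (xE h.cert r t) = xE h.cert s (ε * t) by
    obtain ⟨s, hs, ε, hε, he⟩ := key
    suffices hperm : D.permRoot π r = s from ⟨ε, hε, fun t => by rw [hperm]; exact he t⟩
    have hpred : ∀ u : Fin D.nroots,
        ((List.finRange D.rank).all fun i =>
          (D.coroot.getD u #[]).getD (π i).val 0 == (D.coroot.getD r #[]).getD i.val 0) = true ↔
        ∀ j : Fin D.rank, crd A (π j) u = crd A j r := by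
      intro u
      simp only [List.all_eq_true, List.mem_finRange, true_implies, beq_iff_eq]
      refine forall_congr' fun j => ?_
      rw [← hcor u u.isLt (π j) (π j).isLt, ← hcor r r.isLt j j.isLt, hC.fCor_eq u.isLt (π j).isLt,
        hC.fCor_eq r.isLt j.isLt]
      rfl
    rw [ChevalleyDatum.permRoot]
    cases hf : (List.range D.nroots).find? (fun u => (List.finRange D.rank).all fun i =>
        (D.coroot.getD u #[]).getD (π i).val 0 == (D.coroot.getD r #[]).getD i.val 0) with
    | none =>
      have h2 : ¬ ((List.finRange D.rank).all fun i =>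
          (D.coroot.getD s #[]).getD (π i).val 0 == (D.coroot.getD r #[]).getD i.val 0) = true :=
        List.find?_eq_none.1 hf s (List.mem_range.2 s.isLt)
      exact absurd ((hpred s).2 hs) h2
    | some v =>
      have hv := List.mem_range.1 (List.mem_of_find?_eq_some hf)
      have h2 : ((List.finRange D.rank).all fun i =>
          (D.coroot.getD v #[]).getD (π i).val 0 == (D.coroot.getD r #[]).getD i.val 0) = true :=
        List.find?_some (p := fun u => (List.finRange D.rank).all fun i =>
          (D.coroot.getD u #[]).getD (π i).val 0 == (D.coroot.getD r #[]).getD i.val 0) hf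
      have h3 := (hpred ⟨v, hv⟩).1 h2
      refine congrArg Fin.val (h.eq_of_crd (u := ⟨v, hv⟩) (v := s) fun j hj => ?_)
      have e1 := h3 (π.symm ⟨j, hj⟩)
      have e2 := hs (π.symm ⟨j, hj⟩)
      rw [Equiv.apply_symm_apply] at e1 e2
      rw [e1, e2]
  refine h.root_induction (P := fun r => ∃ s : Fin D.nroots,
    (∀ j : Fin D.rank, crd A (π j) s = crd A j r) ∧
      ∃ ε : F, (ε = 1 ∨ ε = -1) ∧ ∀ t : F, φ (xE h.cert r t) = xE h.cert s (ε * t)) ?_ ?_ r
  · intro i
    refine ⟨smp hC (π i), fun j => ?_, 1, Or.inl rfl, fun t => ?_⟩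
    · show crd A (π j) (D.simple (π i)) = crd A j (D.simple i)
      rw [crd_simple hC (π j).isLt (π i).isLt, crd_simple hC j.isLt i.isLt]
      exact if_congr ⟨fun e => congrArg Fin.val (π.injective (Fin.ext e)),
        fun e => congrArg Fin.val (congrArg π (Fin.ext e))⟩ rfl rfl
    · rw [one_mul]
      exact hp i t
  · rintro i s ⟨s', hs', ε, hε, hφ⟩
    refine ⟨rf hC (π i) s', fun j => ?_, ?_⟩
    · rw [h.crd_rf (π i) (π j).isLt, h.crd_rf i j.isLt, hs']
      have hc : D.cartan (π i) s' = D.cartan i s := by
        rw [cartan_eq_sum h, cartan_eq_sum h, ← Equiv.sum_comp π]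
        exact Finset.sum_congr rfl fun k _ => by rw [hs', hcart]
      rw [hc]
      congr 2
      exact if_congr ⟨fun e => congrArg Fin.val (π.injective (Fin.ext e)),
        fun e => congrArg Fin.val (congrArg π (Fin.ext e))⟩ rfl rfl
    have sign : ∀ (k : Fin D.rank) (u : Fin D.nroots),
        ∃ η : F, (η = 1 ∨ η = -1) ∧ ∀ t : F, nG hC (D.simple k) (1 : F) * xG hC u t *
          (nG hC (D.simple k) 1)⁻¹ = xG hC (rf hC k u) (η * t) := by
      intro k u
      refine ⟨_, ?_, fun t => (acts_nG_simple (F := F) h k one_ne_zero).conj u t⟩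
      simp only [one_zpow, mul_one]
      rcases Int.eq_one_or_neg_one_of_mul_eq_one
        (show etaAt A k (u : ℕ) * etaAt A k (ngR hC u) = 1 from
          (refl_spec hC k.isLt u.isLt).2.2.2.2.2.1) with e | e <;> simp [e]
    obtain ⟨η, hη, hn1⟩ := sign i s
    obtain ⟨η', hη', hn2⟩ := sign (π i) s'
    have nE : ∀ k : Fin D.rank, ∃ n : ↥(D.group F), n.1 = nG hC (D.simple k) 1 ∧
        n = xE hC (D.simple k) 1 * xE hC (D.neg (D.simple k)) (-1⁻¹) * xE hC (D.simple k) 1 :=
      fun k => ⟨_, rfl, rfl⟩
    obtain ⟨n, hnv, hne⟩ := nE i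
    obtain ⟨n', hnv', hne'⟩ := nE (π i)
    have hφn : φ n = n' := by rw [hne, hne', map_mul, map_mul, hp, hn]
    have hηη : η * η = 1 := by rcases hη with rfl | rfl <;> simp
    refine ⟨η' * ε * η, ?_, fun t => ?_⟩
    · rcases hη with rfl | rfl <;> rcases hη' with rfl | rfl <;> rcases hε with rfl | rfl <;> simp
    · have e1 : xE hC (rf hC i s) t = n * xE hC s (η * t) * n⁻¹ := Subtype.ext (by
        simp only [Subgroup.coe_mul, Subgroup.coe_inv, coe_xE, hnv, hn1, ← mul_assoc, hηη, one_mul])
      rw [e1, map_mul, map_mul, map_inv, hφn, hφ]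
      refine Subtype.ext ?_
      simp only [Subgroup.coe_mul, Subgroup.coe_inv, coe_xE, hnv', hn2, ← mul_assoc]

end CfsgLib.Chevalley
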