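import Cfsg.Agent.Lib.Chevalley.CountD4
import Cfsg.Agent.Lib.Chevalley.Order
import Cfsg.Agent.Lib.Chevalley.TorusData

/-! The order of the Chevalley group of type D4. -/

set_option autoImplicit false
set_option maxRecDepth 100000

namespace CfsgLib.Chevalley

open Cfsg.Lie

theorem poincareD4 : poincareB (levelExps levelsD4) [2, 4, 4, 6] = true := by decide +kernel

theorem expsLenD4 : (levelsD4.all fun L => L.exps.length == L.imgs.length) = true := by decide +kernel

/-- The order of the group of type D4. -/
theorem cardD4 {F : Type*} [Field F] [Fintype F] :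
    Nat.gcd (Fintype.card F - 1) 2 * Nat.gcd (Fintype.card F - 1) 2 * Nat.card (chevD4.group F) =
      Fintype.card F ^ (chevD4.nroots / 2) * (([2, 4, 4, 6] : List ℕ).map fun e => Fintype.card F ^ e - 1).prod := by
  refine card_group_eq (D := chevD4) ⟨⟨cert_D4, posD4, by simp⟩, extraD4⟩ reflTabD4_ok
    (Ls := levelsD4) rfl (fun L hL => ?_) levelsD4_ok poincareD4 card_diagonalD4
  have := List.all_eq_true.1 expsLenD4 L hL
  simpa using this

end CfsgLib.Chevalley
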