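import Cfsg.Agent.Lib.InvCentralizers.HeckeChevalley
import Cfsg.Agent.Lib.Chevalley.Weyl

/-! The monomial subgroup modulo the diagonal subgroup is the Coxeter group. -/

set_option autoImplicit false
set_option linter.unusedSectionVars false

namespace CfsgLib.Chevalley

open Cfsg.Lie CfsgLib.InvCentralizers.HeckeChevalley

variable {D : ChevalleyDatum} {A : Aux} {F : Type*} [Field F]
variable {M : CoxeterMatrix (Fin D.rank)} {cart : Fin D.rank → Fin D.rank → ℤ}
variable {Ls : List CfsgLib.Twisted.Cox.Level}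

theorem monomial_quot_equiv (h : Full D A)
    (hcart : ∀ i j : Fin D.rank, cart j i = D.cartan i (D.simple j))
    (T : CfsgLib.Twisted.Cox.Tower M cart Ls) :
    ∃ φ : ↥(D.monomialSubgroup F) →* M.Group, Function.Surjective φ ∧
      φ.ker = (D.diagonalSubgroup F).subgroupOf (D.monomialSubgroup F) ∧
      ∀ (i : Fin D.rank) (g : ↥(D.monomialSubgroup F)),
        ((g : GL D.Idx F) : Matrix D.Idx D.Idx F) = D.nMat F (D.simple i) 1 → φ g = M.simple i := by
  classical
  have hlift : M.IsLiftable (rfPerm h.cert) := by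
    intro i j
    have e1 : wordM M (List.replicate (M.M i j) [i, j]).flatten = 1 := by
      simp only [wordM, List.map_flatten, List.map_replicate, List.prod_flatten, List.map_cons,
        List.map_nil, List.prod_replicate, List.prod_cons, List.prod_nil, mul_one]
      exact M.toCoxeterSystem.simple_mul_simple_pow i j
    have e2 := (wordM_eq_one_iff h hcart T _).1 e1
    simpa only [wPerm, List.map_flatten, List.map_replicate, List.prod_flatten, List.map_cons,
      List.map_nil, List.prod_replicate, List.prod_cons, List.prod_nil, mul_one] using e2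
  let Ψ : M.Group →* Equiv.Perm (Fin D.nroots) := M.toCoxeterSystem.lift ⟨rfPerm h.cert, hlift⟩
  have hΨs : ∀ i, Ψ (M.simple i) = rfPerm h.cert i := fun i => by
    have := M.toCoxeterSystem.lift_apply_simple hlift i
    rwa [CoxeterMatrix.toCoxeterSystem_simple] at this
  have hΨ : ∀ l, Ψ (wordM M l) = wPerm h.cert l := fun l => by
    rw [wordM, map_list_prod, List.map_map, wPerm]
    congr 1
  have hword : ∀ c : M.Group, ∃ l, wordM M l = c := fun c => by
    obtain ⟨l, rfl⟩ := M.toCoxeterSystem.wordProd_surjective c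
    exact ⟨l, by simp [CoxeterSystem.wordProd, wordM]⟩
  have hinj : Function.Injective Ψ := by
    rw [injective_iff_map_eq_one]
    intro c hc
    obtain ⟨l, rfl⟩ := hword c
    rw [hΨ] at hc
    exact (wordM_eq_one_iff h hcart T l).2 hc
  let π : ↥(D.monomialSubgroup F) →* Equiv.Perm (Fin D.nroots) :=
    MonoidHom.mk' (fun g => (exists_acts h g.2).choose) fun a b => by
      obtain ⟨η, hη⟩ := (exists_acts h (a * b).2).choose_spec
      obtain ⟨ηa, ha⟩ := (exists_acts h a.2).choose_spec
      obtain ⟨ηb, hb⟩ := (exists_acts h b.2).choose_spec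
      exact hη.perm_eq (ha.mul hb)
  have hπ : ∀ (g : ↥(D.monomialSubgroup F)) σ η, Acts h.cert (g : GL D.Idx F) σ η → π g = σ :=
    fun g σ η hA => by
      obtain ⟨η', hη'⟩ := (exists_acts h g.2).choose_spec
      exact hη'.perm_eq hA
  have hmem : ∀ g, π g ∈ Ψ.range := fun g => by
    obtain ⟨l, t, ht, e⟩ := (mem_monomial_iff h).1 g.2
    rw [diagonalSubgroup_eq_range h] at ht
    obtain ⟨c, rfl⟩ := ht
    obtain ⟨η, hη⟩ := acts_nW (F := F) h l
    refine ⟨wordM M l, ?_⟩
    rw [hΨ, hπ g _ _ (e ▸ hη.mul (acts_torus h.cert c)), mul_one]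
  let e := MonoidHom.ofInjective hinj
  let φ : ↥(D.monomialSubgroup F) →* M.Group := e.symm.toMonoidHom.comp (π.codRestrict Ψ.range hmem)
  have hφ : ∀ g, Ψ (φ g) = π g := fun g => by
    have : (e (φ g) : Equiv.Perm (Fin D.nroots)) = π g := by
      simp only [φ, MonoidHom.comp_apply, MulEquiv.coe_toMonoidHom, MulEquiv.apply_symm_apply]
      rfl
    exact this
  refine ⟨φ, fun c => ?_, ?_, fun i g hg => ?_⟩
  · obtain ⟨l, rfl⟩ := hword c
    obtain ⟨η, hη⟩ := acts_nW (F := F) h l
    refine ⟨⟨nW h.cert F l, nW_mem_monomial h l⟩, hinj ?_⟩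
    rw [hφ, hΨ, hπ ⟨nW h.cert F l, nW_mem_monomial h l⟩ _ _ hη]
  · ext g
    rw [MonoidHom.mem_ker, Subgroup.mem_subgroupOf, ← hinj.eq_iff, hφ, map_one]
    constructor
    · intro h1
      obtain ⟨η, hη⟩ := (exists_acts h g.2).choose_spec
      refine mem_diagonal_of_perm h g.2 hη fun i => ?_
      rw [show (exists_acts h g.2).choose = 1 from h1]
      exact h.simple_pos i.isLt
    · intro hd
      rw [diagonalSubgroup_eq_range h] at hd
      obtain ⟨c, hc⟩ := hd
      exact hπ g _ _ (hc ▸ acts_torus h.cert c)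
  · refine hinj ?_
    rw [hφ, hΨs]
    have e : (g : GL D.Idx F) = nG h.cert (D.simple i) 1 := Units.ext (hg.trans (coe_nG h.cert _ 1).symm)
    exact hπ g _ _ (e ▸ acts_nG_simple h i one_ne_zero)

end CfsgLib.Chevalley
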